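import Cfsg.Agent.Lib.Helper75.LW.Defs45

/-!
# LW45 package [ALT] (S0745)
-/

set_option autoImplicit false

namespace Cfsg.Agent.Lib.Helper35.LW

open Cfsg.Agent.Lib.Helper75.LW

universe u

theorem pkgAlt : PkgAlt.{u} := by
  intro α _ _ G h
  apply Equiv.Perm.eq_alternatingGroup_of_index_eq_two
  have h1 := Subgroup.card_mul_index G
  rw [Nat.card_eq_fintype_card (α := Equiv.Perm α), Fintype.card_perm] at h1
  have hG : 0 < Nat.card G := Nat.card_pos
  exact Nat.eq_of_mul_eq_mul_left hG (h1.trans h.symm)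

end Cfsg.Agent.Lib.Helper35.LW
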