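import Cfsg.Agent.Lib.Helper75.LW.Defs45
import Cfsg.Agent.S0710

/-!
# LW45 package [E13] (S0745)
-/

set_option autoImplicit false

namespace Cfsg.Agent.Lib.Helper35.LW

open Cfsg.Agent.Lib.Helper75.LW

universe u

theorem pkgE13 (hCntT : PkgCntT.{u}) (hMono : PkgMono.{u}) : PkgE13.{u} := by
  intro α _ _ G hT hTriv hn
  obtain ⟨s, -, hs⟩ := Finset.exists_subset_card_eq (s := (Finset.univ : Finset α)) (n := 6)
    (by rw [Finset.card_univ, hn]; norm_num)
  have hcard := hCntT G 6 s hs hT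
  have hPS : Nat.card (PS G s) = 1 := by
    rw [Nat.card_eq_one_iff_unique]
    refine ⟨⟨fun a b => ?_⟩, ⟨1⟩⟩
    have ha := hTriv s hs a.1 a.2.1 a.2.2
    have hb := hTriv s hs b.1 b.2.1 b.2.2
    exact Subtype.ext (ha.trans hb.symm)
  rw [hPS, hn, mul_one] at hcard
  have hT1 : HT G 1 := hMono G 1 6 (by norm_num) (by omega) hT
  have htr : MulAction.IsPretransitive G α := by
    refine ⟨fun a b => ?_⟩
    let ea : Fin 1 ↪ α := ⟨fun _ => a, fun i j _ => Subsingleton.elim i j⟩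
    let eb : Fin 1 ↪ α := ⟨fun _ => b, fun i j _ => Subsingleton.elim i j⟩
    obtain ⟨g, hg, hgab⟩ := hT1 ea eb
    exact ⟨⟨g, hg⟩, hgab 0⟩
  have := Cfsg.Agent.S0710.result hn G
  apply this
  rw [hcard]
  decide

end Cfsg.Agent.Lib.Helper35.LW
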