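import Cfsg.Agent.Lib.Helper75.LW.Defs45
import Cfsg.Agent.S0708

/-!
# LW45 package [J4] (S0745)
-/

set_option autoImplicit false

namespace Cfsg.Agent.Lib.Helper35.LW

open Cfsg.Agent.Lib.Helper75.LW

universe u

theorem pkgJ4 (hBrT : PkgBrT.{u}) : PkgJ4.{u} := by
  intro α _ _ G hT hTriv
  by_cases hn : Fintype.card α < 4
  · exact ⟨by omega, fun _ => by omega⟩
  · have h4 : MulAction.IsMultiplyPretransitive G α 4 := (hBrT G 4).mpr hT
    have hsharp : ∀ x : Fin 4 ↪ α, MulAction.stabilizer G x = ⊥ := by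
      intro x
      rw [eq_bot_iff]
      intro g hg
      rw [MulAction.mem_stabilizer_iff] at hg
      rw [Subgroup.mem_bot]
      have hfix : ∀ a ∈ (Finset.univ.map x : Finset α), (g : Equiv.Perm α) a = a := by
        intro a ha
        obtain ⟨i, -, rfl⟩ := Finset.mem_map.mp ha
        have := congrArg (fun f : Fin 4 ↪ α => f i) hg
        exact this
      have h1 : (g : Equiv.Perm α) = 1 :=
        hTriv (Finset.univ.map x) (by simp) g g.2 hfix
      exact Subtype.ext h1
    have hne : Nonempty (Fin 4 ↪ α) :=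
      Function.Embedding.nonempty_of_card_le (by simpa using (not_lt.mp hn))
    obtain ⟨-, h11, h6⟩ := Cfsg.Agent.S0708.result h4 hsharp hne
    rw [Nat.card_eq_fintype_card] at h11 h6
    exact ⟨h11, h6⟩

end Cfsg.Agent.Lib.Helper35.LW
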